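import Cfsg.Agent.H7.Mult3
import Cfsg.Agent.H7.OneB
import Cfsg.Agent.H7.Mu.Math

set_option autoImplicit false
set_option maxRecDepth 100000

universe u

open scoped Pointwise

namespace CfsgH7.QM220T

noncomputable def e0 : Tr := (Tr.leaf (nat_lit 0xc98a26a7e0ab892465e0aaab6823e047224389e02268cb86e04521a70be021668a44e04320650ae020640968e008074120e006052062e004030201e0))

noncomputable def j0 : Tr := (Tr.leaf (nat_lit 0x40a010900f8040a010900a8040b03020088060508020070040501070068060501000048040501070040060501000020040500020018000003020010000001020008000000000000))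

noncomputable def R : RTr := (RTr.node (RTr.node (RTr.node (RTr.node (RTr.leaf ⟨false,16,[8],[],0,1,false⟩) (RTr.leaf ⟨false,8,[8,8],[],2,1,false⟩)) (RTr.leaf ⟨false,24,[32],[],1,0,false⟩)) (RTr.node (RTr.node (RTr.leaf ⟨false,16,[16,16],[],2,1,true⟩) (RTr.leaf ⟨false,24,[24,24],[],3,0,false⟩)) (RTr.leaf ⟨false,8,[24,8,24],[],4,2,false⟩))) (RTr.node (RTr.node (RTr.node (RTr.leaf ⟨false,8,[16],[],0,0,false⟩) (RTr.leaf ⟨false,24,[8,24,8],[],4,3,false⟩)) (RTr.leaf ⟨false,32,[32,32],[],3,1,true⟩)) (RTr.node (RTr.leaf ⟨false,32,[24],[],1,1,false⟩) (RTr.leaf ⟨false,16,[32,16,32],[],4,3,true⟩))))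

noncomputable def D : TCD where
  N := nat_lit 12
  E := e0
  lb := nat_lit 4
  lm := nat_lit 15
  rw := nat_lit 40
  em := nat_lit 255
  vm := nat_lit 31
  fl := nat_lit 16
  wv := nat_lit 5
  inf := nat_lit 224
  J := j0
  jw := nat_lit 8
  jm := nat_lit 255
  jr := nat_lit 48
  pk := nat_lit 40
  nr := nat_lit 11
  R := R
  cols := [(nat_lit 8,nat_lit 16),(nat_lit 16,nat_lit 24),(nat_lit 24,nat_lit 32),(nat_lit 32,nat_lit 40)]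
  j0 := nat_lit 8
  big := nat_lit 1000000000

def cl : List (Nat × Nat) := [(8,0),(16,1),(24,2),(32,3)]
def invs : List Nat := []
def rels : List (List Nat) := [[0,1],[2,3],[0,0,0],[2,2,2],[0,2,0,2]]
def subs : List (List Nat) := []
def W0 : List (List Nat) := [[0],[2]]

theorem c0 : Nat.beq (nsum2 D.val 0 1 64) 12 = true := by decide +kernel

theorem pre : tcPre D cl invs rels subs W0 64 12 = true := by decide +kernel

theorem u0 : Upto D.val 0 0 := Upto.zero _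
theorem u1 : Upto D.val 64 12 := u0.step c0 (by decide) (by decide)

theorem relIndex {G : Type*} [Group G] (g : Nat → G) (K : Subgroup G) (hinv : ∀ k ∈ invs, g k * g k = 1)
    (hrel : ∀ r ∈ rels, wprod g r = 1) (hsub : ∀ h ∈ subs, wprod g h ∈ K) :
    K.relIndex (genW g W0) ≠ 0 ∧ K.relIndex (genW g W0) ≤ 12 :=
  tc_relIndex g K D cl invs rels subs W0 _ _ hinv hrel hsub pre u1

end CfsgH7.QM220T

namespace CfsgH7.QM220

def R : List (List Nat) := [[0,0,0],[2,2,2],[0,2,0,2]]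
def S : List (List Nat) := []
theorem p2 : P2.{u} 2 R S 12 := fun _ _ g K hs hS =>
  have hf := hs.follows (invs := QM220T.invs) (rels := QM220T.rels) (by decide +kernel)
  QM220T.relIndex g K hf.1 hf.2 hS
noncomputable def Rf : List (List Nat) := R ++ ([]).map (substW S)
theorem pr : Pr.{u} 2 Rf 12 := Pr.step (S := S) p2 Pr.nil

end CfsgH7.QM220

namespace CfsgH7.M22.Ob

open CfsgH7.M22 CfsgH3

variable {G : Type u} [Group G] {Ω : Type*} [MulAction G Ω] {pt : Nat → Ω} {g : Nat → G} (M : Md pt 22 g l 3 443520 bs)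
include M

def sS : List (List Nat) := [[2,0,3,4,0,2,1,4,1],[4,1,4,0,4],[4,0,4,1,1,1,4,2,0,2,4,2],[3,0,4,0,0,4,1,1,4,1,2],[0,0,2,1,4,2,1,4,0,4,3,1],[0,3,4,0,0,4,1,1,4,2,1],[3,1,4,0,2,4,1,4,0,4]]
theorem sP : Pc (fun j => wprod g (wordAt sS j)) 2 sS.length :=
  M.pc [[10],[],[12],[],[],[],[]] [[], [[2,4,10]], [[4],[4]], [[6,10],[6,8],[6,10,12]], [[8,10,12],[8],[8,12],[8]], [[10],[10,12],[10],[10],[10]], [[12],[12],[12],[12],[12],[12]]] (by decide +kernel) (M.ge sS [⟨0, [[0],[2]], [0,1,0,0,0,1,0], 16⟩,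
  ⟨1, [[1,2,0]], [0], 2⟩,
  ⟨2, [[6],[8,10]], [0,1], 4⟩] 5 (by decide +kernel))
def sR : List (List Nat) := [[1,3,3,4,2,2,0]]
noncomputable def sT : Ct := (.cons (.cons (.cons (.cons (.cons (.cons (.cons .pw (.cons (.rep [2,0,2,4,0,4,0,0,2,2] 0) .nil)) (.cons (.one [[2]] [[]] (.rep [2,2,4,0,2,2,1,4,2,1,4,0] 0)) .nil)) (.cons (.one [[0]] [[12]] (.one [[4]] [[]] (.rep [2,1,2,4,1,4,3,3,4,2,2] 0))) .nil)) (.cons (.one [[2]] [[]] (.one [[4]] [[12]] (.one [[0,4]] [[]] (.rep [3,1,4,2,0,4,3,4,2,1] 0)))) .nil)) (.cons (.cons (.cons (.one [[6]] [[12]] (.one [[8]] [[]] (.kill 6 1 []))) (.cons (.one [[6]] [[12]] (.one [[8]] [[]] (.rep [3,0,4,0,3,4,2,0,4,1,3] 0))) .nil)) (.cons (.one [[2]] [[]] (.one [[6]] [[12]] (.kill 5 1 []))) .nil)) .nil)) (.cons (.one [[0]] [[10,12]] (.cons (.one [[6]] [[]] (.cons (.one [[10]] [[]] (.rep [0,4,1,3,4,1,4,2,1] 0)) (.cons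 (.one [[10]] [[]] (.kill 6 1 [])) .nil))) (.cons (.one [[6]] [[]] (.kill 4 1 [])) .nil))) .nil)) (.cons (.cons (.one [[2]] [[10,12]] (.cons (.cons (.one [[8]] [[12]] (.kill 5 1 [])) (.cons (.one [[8]] [[12]] (.one [[6,8]] [[]] (.kill 6 1 []))) .nil)) (.cons (.cons (.one [[8]] [[12]] (.one [[6,8]] [[]] (.rep [] 0))) (.cons (.one [[8]] [[12]] (.kill 5 1 [12])) .nil)) .nil))) (.cons (.one [[2]] [[10]] (.kill 2 1 [])) .nil)) .nil))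
theorem sK (y : G) (hy : y ^ 2 = 1) (h1 : y ≠ 1) : ∃ r ∈ sR, IsConj y (wprod g r) :=
  M.cl1 (sP M) (by norm_num) (by decide) _ sT (by decide +kernel) y hy h1
def c0U : List (List Nat) := [[1,3,3,4,2,2,0],[3,4,0,3,4,1,4,0,2,4,0,0],[0,0,4,2,1,4,1,4,2,1,3],[3,3,0,4,0,2,2,4,2,0,4,3],[0,2,4,1,2,4,2,1,4,3,3]]
def c0C : List Lvl := [⟨6, [[0],[4]], [0,1,0,0,1,0,0,0], 22⟩,
  ⟨3, [[0,0,2],[1,3,4]], [0,1,0,1,0,0,0,0], 21⟩,
  ⟨1, [[0,2,4,0,0,4],[0,3,4,1,4,2]], [0,1,0,1,0,0,1,0], 20⟩,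
  ⟨21, [[2,2,4,3,3],[3,4,3,3,4],[0,3,3,4,0,4,1,4]], [0,1,2,0,1], 16⟩,
  ⟨14, [[1,1,4,3,1,4,0,4,2,1,4,2]], [0,0], 3⟩]
def c0M : List (List Nat) := [[],
  [0x3fffb7],
  [0x34ffb5],
  [0x104200],
  []]
def c0Z : List Nat := [0x3fffff]
theorem c0L : LvOk G pt 22 [] (mkLV c0C c0M) := M.lvOk c0C 5 c0M (by decide +kernel) (by decide +kernel)
noncomputable def c0T : Bt := (.br 0 [[0],[2],[4],[6],[8]] [0,3,4,2,1] (Bt.ofL [(6, [], (.step 0 0 [] (.br 0 [[2],[4]] [1,0,0,1,0,1] (Bt.deads [[4,0,0,0,0,2,4,0,0,4,3,4,0,4,2,1]] (Bt.ofL [(1, [], (.step 0 0 [] (.br 0 [[2]] [0,0] (Bt.ofL [(14, [], (.leaf 0))]))))])))))]))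
theorem c0E : Subgroup.centralizer {z | ∃ w ∈ [wordAt sR 0], wprod g w = z} = genW g c0U :=
  M.cen (c0L M) _ [[0]] _ 1 5 c0Z c0T (by decide +kernel) (by decide +kernel)
def q0S : List (List Nat) := [[2,4,0,0,4,3,0,3,4,1,1,4],[3,4,0,0,0,4,1,1],[1,2,4,2,2,4,0],[2,0,2,4,3,0,3,4,1,1,1,4],[0,4,2,2,4,1,3,3,4,1,2,4,1],[1,3,3,4,2,2,0]]
theorem q0P : Pc (fun j => wprod g (wordAt q0S j)) 2 q0S.length :=
  M.pc [[10],[10],[],[],[],[]] [[], [[2]], [[4,6,10],[4,6,8,10]], [[6],[6,10],[6]], [[8,10],[8,10],[8],[8]], [[10],[10],[10],[10],[10]]] (by decide +kernel) (M.ge q0S [⟨0, [[0],[4]], [0,1,0,0,0,1], 16⟩,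
  ⟨1, [[0,3],[0,8]], [0,1], 4⟩] 5 (by decide +kernel))
def e0C : List Lvl := [⟨4, [[0],[4]], [0,1,0,0,1,0,0,1,0], 22⟩,
  ⟨8, [[0,2],[1,4,0],[2,0,4]], [0,1,0,2,0,1], 21⟩,
  ⟨5, [[0,0,4,1,1],[2,2,4,0,2,2],[0,0,0,4,3,0,3]], [0,2,1,0,1,1], 20⟩,
  ⟨3, [[1,1,1,4,0,0,0],[1,4,0,4,1,4,0,4],[3,4,1,4,1,1,2,4]], [0,1,2,0,2,1], 16⟩,
  ⟨0, [[1,4,3,1,3,4,1,1,4,0,2]], [0,0], 3⟩]
def e0M : List (List Nat) := [[],
  [0x100],
  [],
  [],
  []]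
def e0Z : List Nat := [0x3fffff]
theorem e0L : LvOk G pt 22 [] (mkLV e0C e0M) := M.lvOk e0C 5 e0M (by decide +kernel) (by decide +kernel)
noncomputable def e0T : Bt := (.br 0 [[0]] [0] (Bt.ofL [(4, [], (.step 0 0 [] (.step 1 2 [] (.step 2 3 [] (.step 2 0 [] (.leaf 0)))))),
 (1, [1], (.step 0 0 [2,0,4,0,2] (.dead 1 1 0))),
 (2, [2,4], (.step 0 0 [0,0,0,4,3,0,3,3,1] (.dead 1 1 0))),
 (6, [4], (.step 0 0 [1,1,1,4,0,0,0,0,2] (.dead 1 1 0))),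
 (5, [3], (.step 0 0 [2,2,4,0,2,1] (.dead 1 1 0))),
 (12, [3,0], (.step 0 0 [1,4,0] (.dead 1 4 0))),
 (11, [3,4,1], (.step 0 0 [1,4,0,4,1,4,0,4,3,1] (.dead 1 1 0))),
 (13, [4,2,1], (.step 0 0 [1,4,0,4,1,4,0,4,3,1] (.dead 1 1 0)))]))
theorem e0E : Subgroup.centralizer {z | ∃ w ∈ q0S, wprod g w = z} = genW g (List.map (substW q0S) [[10]]) :=
  M.cen (e0L M) _ [[0],[2],[4],[6],[8],[10]] _ 6 5 e0Z e0T (by decide +kernel) (by decide +kernel)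
theorem con0 : Con2 (wprod g (wordAt sR 0)) := M.con2 (q0P M) (c0E M) (e0E M) [[[0],[2],[4],[6],[8],[10]], [[2,6,8,10],[0,2,6,10],[4],[6,8],[6],[10]], [[0,2,6,10],[2,6,8,10],[4,8],[8],[6,10],[10]], [[0,2,6,8,10],[0,6],[4],[8],[6,8],[10]], [[2,10],[0,2,6,8],[4,8,10],[6,8,10],[6,10],[10]]] (by decide +kernel)
theorem hA (y : G) (h1 : y ^ 2 = 1) (h2 : y ≠ 1) : ∃ r, IsConj y r ∧ Con2 r := by
  obtain ⟨r, h, e⟩ := (sK M) y h1 h2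
  simp only [sR, List.mem_cons, List.not_mem_nil, or_false] at h
  rcases h with rfl
  exacts [⟨_, e, (con0 M)⟩]
def xR : List (List Nat) := [[],[3,4,3,0,4,1,3,3,1]]
def x0V : List (List Nat) := [[4,1,4,0,2,4,1,4,0,2],[1,4,3,1,4,1,2,0,2,4,2,0,2]]
def x0C : List Lvl := [⟨13, [[0],[4]], [0,0,1,0,0,0,1,0,0], 22⟩,
  ⟨18, [[0,2,1],[0,4,1],[3,4,2]], [0,1,0,2,0,2,0,0,0], 21⟩,
  ⟨14, [[1,4,0],[0,0,4,0,2],[2,4,2,0,4]], [0,1,2,0,1,2], 20⟩,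
  ⟨12, [[0,4,3,0,3,4,0,3],[0,0,2,1,4,0,2,2,4],[0,3,4,1,3,4,3,0,4,0]], [0,1,0,2,2], 16⟩,
  ⟨1, [[3,1,4,0,4,3,1,4,0,4]], [0,0], 3⟩]
def x0M : List (List Nat) := [[],
  [],
  [0x3b97f5],
  [0x80a],
  []]
def x0Z : List Nat := [0x3fffff]
theorem x0L : LvOk G pt 22 [] (mkLV x0C x0M) := M.lvOk x0C 5 x0M (by decide +kernel) (by decide +kernel)
noncomputable def x0T : Bt := (.br 0 [[0],[2]] [0,0,1,0,1,0,1,0,1] (Bt.ofL [(13, [], (.step 0 0 [] (.step 0 0 [] (.br 0 [] [] (Bt.ofL [(12, [], (.br 0 [[0]] [0,0] (Bt.ofL [(1, [], (.leaf 0))])))]))))),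
 (7, [3,0], (.step 0 0 [0,4,3,0,3,4,0,3,0,2,1] (.step 0 0 [0,3,4,1,3,4,3,0,0] (.br 0 [[2],[1,2,0]] [0,0,1] (Bt.ofL [(3, [], (.br 0 [] [] .nil))]))))),
 (8, [0], (.step 0 0 [0,3,1] (.step 0 0 [4,1,3,4,3,1,4,0] (.br 0 [[3,0],[2,1]] [0,0,1] (Bt.ofL [(12, [], (.br 0 [] [] .nil))])))))]))
theorem x0E : Subgroup.centralizer {z | ∃ w ∈ [wordAt xR 1], wprod g w = z} = genW g x0V :=
  M.cen (x0L M) _ [[0],[0,0],[1]] _ 1 5 x0Z x0T (by decide +kernel) (by decide +kernel)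
theorem o0 : orderOf (wprod g (wordAt xR 1)) = 3 := M.ordN _ (by decide +kernel)
theorem le0 : Nat.card (Subgroup.centralizer {wprod g (wordAt xR 1)}) ≤ 3 * 12 :=
  M.cenLe (V := x0V) QM220.pr (x0E M) [0,0,1] (by decide +kernel) (o0 M)
def a0S : List (List Nat) := [[3,4,3,0,4,1,3,3,1]]
theorem a0P : Pc (fun j => wprod g (wordAt a0S j)) 3 a0S.length :=
  M.pc [[]] [[]] (by decide +kernel) (M.ge a0S [⟨0, [[0]], [0,0], 3⟩] 5 (by decide +kernel))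
def b0S : List (List Nat) := [[1,2,0,4,1,3,3,4,0,2,2,1],[4,0,4,2,0,4,1,3,3],[1,4,0,2,4,1,4,0,4,3]]
theorem b0P : Pc (fun j => wprod g (wordAt b0S j)) 2 b0S.length :=
  M.pc [[],[4],[]] [[], [[2,4]], [[4],[4]]] (by decide +kernel) (M.ge b0S [⟨0, [[0],[2]], [0,1,0,1], 8⟩] 5 (by decide +kernel))
theorem d0 {χ : G → ℂ} (hχ : Cfsg.IsCharacter G χ) (h0 : ∀ x, 2 ∣ orderOf x → χ x = 0) :
    ∃ j : Nat, 1 * χ 1 + 2 * χ (wprod g (wordAt xR 1)) = 24 * j := by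
  obtain ⟨j, e⟩ := M.dz (a0P M) (b0P M) [[[0,0]], [[0,0]], [[0]]] xR [[],[],[4,1,1,1,1,4,1,1,1]] [0,1,1] (by decide +kernel) hχ h0
  have e : (χ 1 + (χ (wprod g (wordAt xR 1)) + (χ (wprod g (wordAt xR 1)) + 0))) = (3 ^ 1 * 2 ^ 3 * j : Nat) := e
  exact ⟨j, by push_cast at e; linear_combination e⟩
def tS : List (List Nat) := [[3,1,4,0,4,3,1,4,0,4],[3,4,3,0,4,1,3,3,1]]
theorem tP : Pc (fun j => wprod g (wordAt tS j)) 3 tS.length :=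
  M.pc [[],[]] [[], [[2]]] (by decide +kernel) (M.ge tS [⟨0, [[0],[2]], [0,1,0,1], 9⟩] 5 (by decide +kernel))
theorem dP {χ : G → ℂ} (hχ : Cfsg.IsCharacter G χ) (h0 : ∀ x, 2 ∣ orderOf x → χ x = 0) :
    ∃ j : Nat, 1 * χ 1 + 8 * χ (wprod g (wordAt xR 1)) = 9 * j := by
  obtain ⟨j, e⟩ := M.dz (tP M) M.pc0 [] xR [[],[],[4,1,1,1,1,4,1,1,1],[1,4,0,4,2,1,2,0,4,2,1],[1,3,3,4,2,1,4,2,2,4],[4,1,3,3,1,4,1,3,4,3],[2,4,0,4,0,0,4,2,2],[3,4,0,0,4,3,0,4,0],[2,1,3,4,0,4,1,1,2,4,1,2]] [0,1,1,1,1,1,1,1,1] (by decide +kernel) hχ h0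
  have e : (χ 1 + (χ (wprod g (wordAt xR 1)) + (χ (wprod g (wordAt xR 1)) + (χ (wprod g (wordAt xR 1)) + (χ (wprod g (wordAt xR 1)) + (χ (wprod g (wordAt xR 1)) + (χ (wprod g (wordAt xR 1)) + (χ (wprod g (wordAt xR 1)) + (χ (wprod g (wordAt xR 1)) + 0))))))))) = (3 ^ 2 * 2 ^ 0 * j : Nat) := e
  exact ⟨j, by push_cast at e; linear_combination e⟩
theorem hB (χ : Cfsg.IrrCharacter G) : 2 ∣ Nat.card G / Cfsg.charDegree χ.1 := by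
  have := M.fin
  by_contra h
  obtain ⟨h0, m, hm, h1⟩ := deg_of χ h (e := 7) (u := 3465) (by rw [M.card]; norm_num)
  obtain ⟨jd0, ed0⟩ := (d0 M) χ.2.isCharacter h0
  obtain ⟨jdP, edP⟩ := (dP M) χ.2.isCharacter h0
  have h2 : χ.1 1 = (128 * m : ℤ) := by rw [h1]; push_cast; ring
  obtain ⟨a, ha⟩ : ∃ a : ℤ, a = 12 * jd0 - 64 * m := ⟨_, rfl⟩
  have ka : χ.1 (wprod g (wordAt xR 1)) = a := by rw [ha]; rw [h2] at ed0; push_cast at ed0 ⊢; linear_combination ed0 / 2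
  have na := norm2 χ.2 (fun e => by simpa [e] using (o0 M)) (le0 M) h2 ka
  rw [M.card] at na
  push_cast at na
  rw [h2, ka] at edP
  have fP : 1 * (128 * m) + 8 * a = 9 * jdP := by exact_mod_cast edP
  have c1 : (m : ℤ) < 6 := by nlinarith [sq_nonneg a]
  have c2 : a < 7 := by nlinarith [sq_nonneg (m : ℤ)]
  have c3 : -7 < a := by nlinarith [sq_nonneg (m : ℤ)]
  have c6 : m < 6 := by omega
  interval_cases m <;> omega

end CfsgH7.M22.Ob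

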